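import Mathlib
import Cfsg.Agent.H325.ConCard
import Cfsg.Agent.H12.AltComp
import Cfsg.Agent.OddHalf.Small.Alt
import Cfsg.Agent.CTwoTab.Kinds
import Cfsg.Agent.GH.Defs

/-!
# `A_n`, `n ≤ 11`: no nonsolvable 2-constrained involution centralizer
-/

set_option autoImplicit false

open Cfsg Subgroup Equiv Equiv.Perm

namespace Cfsg.Agent.H325.ConAlt

open Cfsg.Agent.H325.Con

theorem four_dvd_of_quasisimple {K : Type*} [Group K] [Finite K] (h : IsQuasisimple K) : 4 ∣ Nat.card K := by
  by_contra h4
  exact Cfsg.Agent.Lib.ComponentSolvable.quasisimple_not_solvable h (CpAut.SmallP.isSolvable_of_not_four_dvd h4)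

theorem not_constrained_of_component' {C : Type*} [Group C] [Finite C] {K : Subgroup C} (hK : IsComponent K) :
    ¬ IsPConstrained 2 C :=
  not_constrained_of_component hK
    (even_iff_two_dvd.2 ((by norm_num : 2 ∣ 4).trans (four_dvd_of_quasisimple hK.2)))

/-- five fixed points -/
theorem not_constrained_of_five {n : ℕ} {t : alternatingGroup (Fin n)}
    (h5 : 5 ≤ Fintype.card {i : Fin n // (t : Perm (Fin n)) i = i}) :
    ¬ IsPConstrained 2 ↥(centralizer ({t} : Set (alternatingGroup (Fin n)))) := by
  have : Fact (Nat.Prime 2) := ⟨Nat.prime_two⟩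
  set x : Perm (Fin n) := (t : Perm (Fin n)) with hx
  have hmap : (centralizer ({t} : Set (alternatingGroup (Fin n)))).map (alternatingGroup (Fin n)).subtype = H12.AltComp.H x := by
    ext y
    constructor
    · rintro ⟨z, hz, rfl⟩
      exact ⟨mem_centralizer_singleton_iff.2 (congrArg Subtype.val (mem_centralizer_singleton_iff.1 hz)), z.2⟩
    · rintro ⟨h1, h2⟩
      exact ⟨⟨y, h2⟩, mem_centralizer_singleton_iff.2 (Subtype.ext (mem_centralizer_singleton_iff.1 h1)), rfl⟩
  let e1 : ↥(centralizer ({t} : Set (alternatingGroup (Fin n)))) ≃* ↥(H12.AltComp.H x) :=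
    ((centralizer ({t} : Set (alternatingGroup (Fin n)))).equivMapOfInjective (alternatingGroup (Fin n)).subtype
      (subtype_injective _)).trans (MulEquiv.subgroupCongr hmap)
  let e : (H12.AltComp.D x).subgroupOf (H12.AltComp.H x) ≃* alternatingGroup {i : Fin n // x i = i} :=
    (subgroupOfEquivOfLe H12.AltComp.D_le).trans (H12.AltComp.eD x).symm
  have hsim : IsSimpleGroup (alternatingGroup {i : Fin n // x i = i}) := by
    apply alternatingGroup.isSimpleGroup
    rw [Nat.card_eq_fintype_card]
    exact h5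
  have hna : ¬ IsMulCommutative (alternatingGroup {i : Fin n // x i = i}) :=
    Cfsg.Agent.CTwoTab.na_alt h5 (Fintype.equivFin {i : Fin n // x i = i}).altCongrHom
  have hK : IsComponent ((H12.AltComp.D x).subgroupOf (H12.AltComp.H x)) := by
    refine ⟨?_, (SignalizersComponents.Components.isQuasisimple_congr e).2 (CpAut.Fix.quasisimple_of_simple hna)⟩
    rw [← H12.AltComp.ker_rho]
    exact Subgroup.Normal.isSubnormal (MonoidHom.normal_ker _)
  intro hc
  exact not_constrained_of_component' hK ((PLocal.PConstrained.isPConstrained_congr e1).1 hc)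

/-- **The alternating groups of degree at most 11.** -/
theorem nc_alt {n : ℕ} (hn : n ≤ 11) : NC (alternatingGroup (Fin n)) := by
  intro t ht hc
  obtain ⟨m, hm1, hm, hcy⟩ := OddHalf.Small.Alt.cycleType_of_involution t ht
  have hf : Fintype.card {i : Fin n // (t : Perm (Fin n)) i = i} = n - 4 * m := by
    have h1 : (t : Perm (Fin n)).support.card = 4 * m := by
      rw [← sum_cycleType, hcy, Multiset.sum_replicate, smul_eq_mul]
      ring
    have h2 := Finset.card_compl (t : Perm (Fin n)).support
    rw [h1, Fintype.card_fin] at h2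
    rw [← h2, Fintype.card_subtype]
    congr 1
    ext i
    simp
  by_cases h5 : 5 ≤ n - 4 * m
  · exact absurd hc (not_constrained_of_five (by rw [hf]; exact h5))
  · have h1 := OddHalf.Small.Alt.card_centralizer_dvd t
    rw [OddHalf.Small.Alt.card_centralizer_perm _ (by omega) hcy] at h1
    apply solvable_of_two_three (a := 10) (b := 2)
    refine h1.trans ?_
    have hm2 : m = 1 ∨ m = 2 := by omega
    have h2 : (n - 2 * (2 * m)).factorial ∣ 24 := by
      have : n - 2 * (2 * m) ≤ 4 := by omega
      exact Nat.factorial_dvd_factorial this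
    have h3 : (2 : ℕ) ^ (2 * m) ∣ 16 := by
      rcases hm2 with rfl | rfl <;> norm_num
    have h4 : (2 * m).factorial ∣ 24 := by
      rcases hm2 with rfl | rfl <;> decide
    exact (mul_dvd_mul (mul_dvd_mul h2 h3) h4).trans (by norm_num)

theorem nc_isAlt {X : Type*} [Group X] [Finite X] {n : ℕ} (hn : n ≤ 11) (h : GH.Defs.IsAlt n X) : NC X := by
  obtain ⟨e⟩ := h
  exact NC.congr e (nc_alt hn)

end Cfsg.Agent.H325.ConAlt
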