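import Mathlib
import Cfsg.Agent.H325.ConCard
import Cfsg.Agent.CoThreeStd.InvTwo

/-!
# `M₁₂`: no nonsolvable 2-constrained involution centralizer
-/

set_option autoImplicit false

open Cfsg Subgroup

namespace Cfsg.Agent.H325.ConM12

open Cfsg.Agent.CoThreeStd Cfsg.Agent.CoThreeStd.MTwelve Cfsg.Agent.CoThreeStd.InvTwo
open Cfsg.Agent.SporadicStructure.M11InvPerms

theorem card_conj {G : Type*} [Group G] {c u t : G} (h : c⁻¹ * u * c = t) :
    Nat.card ↥(centralizer ({t} : Set G)) = Nat.card ↥(centralizer ({u} : Set G)) := by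
  have h1 := Con.centEquiv (MulAut.conj c) t
  rw [MulAut.conj_apply, ← h, show c * (c⁻¹ * u * c) * c⁻¹ = u by group] at h1
  rw [← h]
  exact Nat.card_congr h1.toEquiv

theorem nc {X : Type*} [Group X] [Finite X] (h : Spor.IsoM12 X) : Con.NC X := by
  obtain ⟨e⟩ := h
  refine Con.NC.congr e fun t ht hc => ?_
  have htt : t * t = 1 := by rw [← pow_two, ← ht]; exact pow_orderOf_eq_one t
  have ht1 : t ≠ 1 := by
    rintro rfl
    rw [orderOf_one] at ht
    omega
  rcases inv2.cases t htt ht1 with ⟨c, h1⟩ | ⟨c, h1⟩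
  · by_contra hs
    have h2 := Con.dvd_of_constrained hc hs
    rw [card_conj h1, card_cent_y] at h2
    norm_num at h2
  · apply Con.solvable_of_two_three (a := 6) (b := 1)
    rw [card_conj h1, card_cent_v]
    norm_num

end Cfsg.Agent.H325.ConM12
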