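import Mathlib
import Cfsg.Agent.OddHalf.Small.RankOne
import Cfsg.Agent.S0205
import Cfsg.Agent.Classification.PSLTwoEvenSylow
import Cfsg.Agent.SignalizersComponents.BalEndSz
import Cfsg.Agent.H325.ConLie

/-!
# Groups all of whose 2-local subgroups are solvable (helper325)

`LS G`: all 2-local subgroups of `G` are solvable. `ls_of_setup`: rank one groups in characteristic 2.
-/

set_option autoImplicit false

namespace Cfsg.Agent.H325.Con

open Subgroup Cfsg MulAction
open Cfsg.Agent.LieRecognition.RankOneBasic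

universe u

/-- All 2-local subgroups are solvable. -/
def LS (G : Type*) [Group G] : Prop :=
  ∀ T : Subgroup G, IsPGroup 2 T → T ≠ ⊥ → Group.IsSolvable ↥(normalizer (T : Set G))

theorem LS.congr {G H : Type*} [Group G] [Group H] (e : G ≃* H) (h : LS H) : LS G := by
  intro T hT hT1
  have h1 := h (T.map e.toMonoidHom) (hT.map _) (fun h0 => hT1 ((Subgroup.map_eq_bot_iff_of_injective _ e.injective).1 h0))
  have h2 : (normalizer (T : Set G)).map e.toMonoidHom ≤ normalizer ((T.map e.toMonoidHom : Subgroup H) : Set H) :=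
    Subgroup.le_normalizer_map _
  have h3 : Group.IsSolvable ↥((normalizer (T : Set G)).map e.toMonoidHom) :=
    Group.isSolvable_of_isSolvable_injective (f := Subgroup.inclusion h2) (Subgroup.inclusion_injective h2)
  exact solvable_congr (e.subgroupMap (normalizer (T : Set G))) h3

theorem LS.cent {G : Type*} [Group G] (h : LS G) {t : G} (ht : orderOf t = 2) :
    Group.IsSolvable ↥(centralizer ({t} : Set G)) := by
  have h1 : IsPGroup 2 (zpowers t) := by
    have : Fact (Nat.Prime 2) := ⟨Nat.prime_two⟩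
    refine IsPGroup.of_card (n := 1) ?_
    rw [Nat.card_zpowers, ht, pow_one]
  have h2 : zpowers t ≠ ⊥ := by
    intro h0
    rw [zpowers_eq_bot] at h0
    rw [h0, orderOf_one] at ht
    omega
  have h3 : centralizer ({t} : Set G) ≤ normalizer (zpowers t : Set G) := by
    rw [← Subgroup.centralizer_closure, ← zpowers_eq_closure]
    exact Subgroup.centralizer_le_normalizer _
  have h4 := h (zpowers t) h1 h2
  exact Group.isSolvable_of_isSolvable_injective (f := Subgroup.inclusion h3) (Subgroup.inclusion_injective h3)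

theorem LS.nc {G : Type*} [Group G] (h : LS G) : NC G := fun _ ht _ => h.cent ht

theorem ls_of_setup {G Ω : Type*} [Group G] [Finite G] [MulAction G Ω] {a : Ω} {w : G}
    {Q : Subgroup G} (hS : IsRankOneSetup G Ω a w Q) (hQ : IsPGroup 2 Q) : LS G := by
  intro T hT hT1
  have : Fact (Nat.Prime 2) := ⟨Nat.prime_two⟩
  -- a central involution of `T`
  have hnt : Nontrivial ↥T := (Subgroup.nontrivial_iff_ne_bot T).2 hT1
  have hz : Nontrivial ↥(center ↥T) := hT.center_nontrivial
  obtain ⟨u, hu⟩ : ∃ u : ↥(center ↥T), orderOf u = 2 := by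
    apply exists_prime_orderOf_dvd_card' 2
    obtain ⟨n, hn⟩ := IsPGroup.iff_card.1 (hT.to_subgroup (center ↥T))
    have : 1 < Nat.card ↥(center ↥T) := Finite.one_lt_card
    rw [hn] at this ⊢
    rcases n with _ | n
    · simp at this
    · exact ⟨2 ^ n, by rw [pow_succ, mul_comm]⟩
  set v : G := ((u : ↥T) : G) with hv
  have hv2 : orderOf v = 2 := by
    rw [hv, ← hu, Subgroup.orderOf_coe, Subgroup.orderOf_coe]
  have hv1 : v ≠ 1 := by
    rintro h
    rw [h, orderOf_one] at hv2
    omega
  have hvv : v * v = 1 := by rw [← pow_two, ← hv2, pow_orderOf_eq_one]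
  have hvc : ∀ x ∈ T, x * v = v * x := by
    intro x hx
    have := (mem_center_iff.1 u.2) ⟨x, hx⟩
    exact congrArg Subtype.val this
  obtain ⟨c, hc⟩ := exists_fixed hS hvv
  have hTc : ∀ x ∈ T, x • c = c := by
    intro x hx
    refine fixed_unique hS hv1 hvv ?_ hc
    rw [← mul_smul, ← hvc x hx, mul_smul, hc]
  have hN : normalizer (T : Set G) ≤ stabilizer G c := by
    intro n hn
    rw [mem_stabilizer_iff]
    refine fixed_unique hS hv1 hvv ?_ hc
    have h1 : n⁻¹ * v * n ∈ T := by
      have := (mem_normalizer_iff.1 (inv_mem hn) v).1 (u : ↥T).2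
      simpa using this
    have h2 := hTc _ h1
    rw [mul_smul, mul_smul, inv_smul_eq_iff] at h2
    exact h2
  obtain ⟨g, hg⟩ := exists_smul_eq' hS a c
  -- the stabiliser is solvable
  have hsa : Group.IsSolvable ↥(stabilizer G a) := by
    have hn : (Q.subgroupOf (stabilizer G a)).Normal :=
      ⟨fun x hx y => hS.conj_mem y y.2 x hx⟩
    have hD : Group.IsSolvable ↥(stabilizer G a ⊓ stabilizer G (w • a)) := S0205.result hS.odd_card
    refine (Group.isSolvable_iff_subgroup_quotient (Q.subgroupOf (stabilizer G a))).2 ⟨?_, ?_⟩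
    · have h1 : IsPGroup 2 ↥(Q.subgroupOf (stabilizer G a)) := by
        have := hQ.comap_of_injective (stabilizer G a).subtype (stabilizer G a).subtype_injective
        exact this
      have := h1.isNilpotent
      infer_instance
    · set f : ↥(stabilizer G a ⊓ stabilizer G (w • a)) →* ↥(stabilizer G a) ⧸ Q.subgroupOf (stabilizer G a) :=
        (QuotientGroup.mk' _).comp (Subgroup.inclusion inf_le_left) with hf
      refine Group.isSolvable_of_surjective (f := f) ?_
      have hle : stabilizer G a ≤ (f.range.comap (QuotientGroup.mk' (Q.subgroupOf (stabilizer G a)))).map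
          (stabilizer G a).subtype := by
        conv_lhs => rw [← hS.sup_eq]
        refine sup_le ?_ ?_
        · intro x hx
          refine ⟨⟨x, hS.le hx⟩, ?_, rfl⟩
          refine ⟨1, ?_⟩
          rw [map_one]
          symm
          rw [QuotientGroup.mk'_apply, QuotientGroup.eq_one_iff]
          exact hx
        · intro x hx
          exact ⟨⟨x, hx.1⟩, ⟨⟨x, hx⟩, rfl⟩, rfl⟩
      intro y
      obtain ⟨y, rfl⟩ := QuotientGroup.mk_surjective y
      obtain ⟨y', hy', h⟩ := hle y.2
      have : y' = y := Subtype.ext h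
      rw [← this]
      exact hy'
  have h5 : (stabilizer G c) ≤ (stabilizer G a).map (MulAut.conj g).toMonoidHom := by
    intro x hx
    refine ⟨g⁻¹ * x * g, ?_, by simp [mul_assoc]⟩
    rw [SetLike.mem_coe, mem_stabilizer_iff, mul_smul, mul_smul, hg, mem_stabilizer_iff.1 hx, ← hg, inv_smul_smul]
  have h6 : Group.IsSolvable ↥((stabilizer G a).map (MulAut.conj g).toMonoidHom) :=
    solvable_congr ((stabilizer G a).equivMapOfInjective _ (MulAut.conj g).injective).symm hsa
  have h7 := hN.trans h5
  exact Group.isSolvable_of_isSolvable_injective (f := Subgroup.inclusion h7) (Subgroup.inclusion_injective h7)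

/-- `PSU₃(2^n)`. -/
theorem ls_u3 {G : Type*} [Group G] [Finite G] (F : Type) [Field F] [Fintype F] (n : ℕ) (hn : 1 ≤ n)
    (hF : Fintype.card F = (2 ^ n) ^ 2) (h : Nonempty (G ≃* PSU 3 F (2 ^ n))) : LS G := by
  obtain ⟨e⟩ := h
  have : Fact (Nat.Prime 2) := ⟨Nat.prime_two⟩
  have hfin : Finite (PSU 3 F (2 ^ n)) := Finite.of_equiv _ e.toEquiv
  have hF' : Fintype.card F = 2 ^ (n * 2) := by rw [hF, pow_mul]
  have hch : CharP F 2 := charP_of_card_eq_prime_pow hF'
  have hσ : Fact (∀ x, iterateFrobenius F 2 n (iterateFrobenius F 2 n x) = x) := by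
    refine ⟨fun x => ?_⟩
    rw [iterateFrobenius_def, iterateFrobenius_def, ← pow_mul, ← pow_two, ← hF, FiniteField.pow_card]
  have hF2 : Nat.card F = (2 ^ n) ^ 2 := by rw [Nat.card_eq_fintype_card, hF]
  obtain ⟨H, S, w, ψ, hfaith, hsetup, -, -⟩ :=
    Cfsg.Agent.SuzukiRankOne.PSUModel.exists_model (σ := iterateFrobenius F 2 n) hn
      (fun x => iterateFrobenius_def 2 n x) hF2
  have hS : IsPGroup 2 S := by
    refine IsPGroup.of_card (n := n * 3) ?_
    rw [← Nat.card_congr ψ.toEquiv, Cfsg.Agent.LieRecognition.HermHeis.card_heis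
      (Nat.one_lt_two_pow (by omega)) (fun x => iterateFrobenius_def 2 n x) hF2, ← pow_mul]
  exact LS.congr e (ls_of_setup hsetup hS)

/-- The Suzuki groups. -/
theorem ls_sz {G : Type*} [Group G] [Finite G] (h : Lie.IsoSuzuki G) : LS G := by
  obtain ⟨F, iF, iFin, m, hm, hF, ⟨e⟩⟩ := h
  have hfin : Finite ↥(Lie.Sz F (2 ^ (m + 1))) := Finite.of_equiv _ e.toEquiv
  have H := Cfsg.Agent.LieRecognition.SzMatrix.good hF
  have hfaith := Cfsg.Agent.SuzukiRankOne.SzModel.faithful H
  have hS : IsPGroup 2 H.unip := by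
    refine IsPGroup.of_card (n := (2 * m + 1) * 2) ?_
    rw [H.card_unip, Nat.card_eq_fintype_card, hF, ← pow_mul]
  exact LS.congr e (ls_of_setup (Cfsg.Agent.SuzukiRankOne.SzModel.setup H) hS)

/-- The normalizer of a Sylow 2-subgroup whose order is a power of 2 times an odd number is solvable. -/
theorem solvable_normalizer_sylow {G : Type*} [Group G] [Finite G] (S : Sylow 2 G) :
    Group.IsSolvable ↥(normalizer ((S : Subgroup G) : Set G)) := by
  have : Fact (Nat.Prime 2) := ⟨Nat.prime_two⟩
  have hn : ((S : Subgroup G).subgroupOf (normalizer ((S : Subgroup G) : Set G))).Normal := Subgroup.normal_in_normalizer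
  refine (Group.isSolvable_iff_subgroup_quotient ((S : Subgroup G).subgroupOf (normalizer ((S : Subgroup G) : Set G)))).2 ⟨?_, ?_⟩
  · have h1 : IsPGroup 2 ↥((S : Subgroup G).subgroupOf (normalizer ((S : Subgroup G) : Set G))) :=
      S.2.comap_of_injective (normalizer ((S : Subgroup G) : Set G)).subtype (Subgroup.subtype_injective _)
    have := h1.isNilpotent
    infer_instance
  · apply S0205.result
    rw [← Subgroup.index_eq_card, ← Nat.not_even_iff_odd, even_iff_two_dvd]
    intro h
    have h2 : (S : Subgroup G).relIndex (normalizer ((S : Subgroup G) : Set G)) ∣ (S : Subgroup G).index :=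
      Subgroup.relIndex_dvd_index_of_le Subgroup.le_normalizer
    exact S.not_dvd_index (h.trans h2)

/-- Groups with abelian Sylow 2-subgroups in which the centralizers of involutions are 2-groups. -/
theorem ls_of_cit {G : Type*} [Group G] [Finite G] (hcit : ∀ t : G, orderOf t = 2 → IsPGroup 2 ↥(centralizer ({t} : Set G)))
    (hab : ∀ S : Sylow 2 G, IsMulCommutative ↥(S : Subgroup G)) : LS G := by
  intro T hT hT1
  have : Fact (Nat.Prime 2) := ⟨Nat.prime_two⟩
  obtain ⟨S, hTS⟩ := hT.exists_le_sylow
  have hnt : Nontrivial ↥T := (Subgroup.nontrivial_iff_ne_bot T).2 hT1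
  obtain ⟨u, hu⟩ : ∃ u : ↥T, orderOf u = 2 := by
    apply exists_prime_orderOf_dvd_card' 2
    obtain ⟨n, hn⟩ := IsPGroup.iff_card.1 hT
    have : 1 < Nat.card ↥T := Finite.one_lt_card
    rw [hn] at this ⊢
    rcases n with _ | n
    · simp at this
    · exact ⟨2 ^ n, by rw [pow_succ, mul_comm]⟩
  have hS := hab S
  have key : ∀ v ∈ T, orderOf v = 2 → centralizer ({v} : Set G) = (S : Subgroup G) := by
    intro v hv hv2
    apply S.3 (hcit v hv2)
    intro s hs
    rw [mem_centralizer_singleton_iff]
    have := hS.is_comm.comm (⟨s, hs⟩ : ↥(S : Subgroup G)) ⟨v, hTS hv⟩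
    exact congrArg Subtype.val this
  have hN : normalizer (T : Set G) ≤ normalizer ((S : Subgroup G) : Set G) := by
    intro n hn
    have h1 : n * (u : G) * n⁻¹ ∈ T := (mem_normalizer_iff.1 hn u).1 u.2
    have hu2 : orderOf (u : G) = 2 := by rw [Subgroup.orderOf_coe, hu]
    have h2 : orderOf (n * (u : G) * n⁻¹) = 2 := by
      rw [← hu2, ← MulAut.conj_apply]
      exact orderOf_injective (MulAut.conj n).toMonoidHom (MulAut.conj n).injective _
    have h3 := key _ u.2 hu2
    have h4 := key _ h1 h2
    rw [mem_normalizer_iff]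
    intro x
    constructor
    · intro hx
      rw [← h3, mem_centralizer_singleton_iff] at hx
      rw [← h4, mem_centralizer_singleton_iff]
      calc n * x * n⁻¹ * (n * u * n⁻¹) = n * (x * u) * n⁻¹ := by group
        _ = n * (u * x) * n⁻¹ := by rw [hx]
        _ = n * u * n⁻¹ * (n * x * n⁻¹) := by group
    · intro hx
      rw [← h4, mem_centralizer_singleton_iff] at hx
      rw [← h3, mem_centralizer_singleton_iff]
      have h5 : n⁻¹ * (n * x * n⁻¹ * (n * u * n⁻¹)) * n = n⁻¹ * (n * u * n⁻¹ * (n * x * n⁻¹)) * n := by rw [hx]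
      have h6 : n⁻¹ * (n * x * n⁻¹ * (n * u * n⁻¹)) * n = x * u := by group
      have h7 : n⁻¹ * (n * u * n⁻¹ * (n * x * n⁻¹)) * n = u * x := by group
      rw [h6, h7] at h5
      exact h5
  have h8 := solvable_normalizer_sylow S
  exact Group.isSolvable_of_isSolvable_injective (f := Subgroup.inclusion hN) (Subgroup.inclusion_injective hN)

/-- `PSL₂(q)`, `q` even. -/
theorem ls_l2 {G : Type*} [Group G] [Finite G] {F : Type} [Field F] [Fintype F] [CharP F 2]
    (e : G ≃* Matrix.ProjectiveSpecialLinearGroup (Fin 2) F) : LS G :=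
  ls_of_cit (fun _ ht => SignalizersComponents.BalEndSz.isPGroup_centralizer_psl e ht)
    fun S => Classification.PSLTwoEvenSylow.sylow_comm e S

end Cfsg.Agent.H325.Con
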