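import Mathlib
import Cfsg.Agent.H325.ConLie
import Cfsg.Agent.H325.ConRank1
import Cfsg.Agent.GH.Defs

/-!
# The rows of odd characteristic of the list `K4`: no nonsolvable 2-constrained involution centralizer

`odd_rows`: the families `PSL₂(q)`, `PSL₃(q)`, `PSU₃(q)`, `PSp₄(q)`, `PSL₄(q)`, `PSU₄(q)`, `PSL₅(q)`, `PSU₅(q)`, `G₂(q)`,
`³D₄(q)`, `q` odd.
-/

set_option autoImplicit false

open Cfsg Subgroup

universe u

namespace Cfsg.Agent.H325.Con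

open Cfsg.Agent.GH.Defs

theorem exists_char {F : Type*} [Field F] [Fintype F] (h : Odd (Fintype.card F)) :
    ∃ p : ℕ, CharP F p ∧ p.Prime ∧ p ≠ 2 ∧ IsPrimePow (Fintype.card F) := by
  obtain ⟨p, hp⟩ := CharP.exists F
  obtain ⟨n, hpp, hc⟩ := FiniteField.card F p
  refine ⟨p, hp, hpp, ?_, ?_⟩
  · rintro rfl
    rw [hc] at h
    exact (Nat.not_even_iff_odd.2 h) (even_iff_two_dvd.2 (dvd_pow_self 2 n.pos.ne'))
  · rw [hc]
    exact hpp.isPrimePow.pow n.pos.ne'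

theorem three_le_card {F : Type*} [Field F] [Fintype F] (h : Odd (Fintype.card F)) : 3 ≤ Fintype.card F := by
  have h1 : 1 < Fintype.card F := Fintype.one_lt_card
  obtain ⟨k, hk⟩ := h
  omega

/-- The odd rows are of Lie type in odd characteristic. -/
theorem lie_of_odd_rows {X : Type*} [Group X]
    (h : IsL2odd X ∨ IsL3odd X ∨ IsU3odd X ∨ IsSp4odd X ∨ IsL4odd X ∨ IsU4odd X ∨ IsL5odd X ∨ IsU5odd X ∨
      IsG2odd X ∨ IsD4odd X) : ∃ p : ℕ, p ≠ 2 ∧ IsLieTypeChar p X := by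
  rcases h with h | h | h | h | h | h | h | h | h | h
  · obtain ⟨F, i1, i2, ho, h5, e⟩ := h
    obtain ⟨p, hp, -, hp2, -⟩ := exists_char ho
    exact ⟨p, hp2, Or.inl ⟨F, i1, i2, hp, 2, le_rfl, fun _ => by omega, e⟩⟩
  · obtain ⟨F, i1, i2, ho, e⟩ := h
    obtain ⟨p, hp, -, hp2, -⟩ := exists_char ho
    exact ⟨p, hp2, Or.inl ⟨F, i1, i2, hp, 3, by omega, fun h => absurd h (by norm_num), e⟩⟩
  · obtain ⟨F, i1, i2, q, hq, ho, e⟩ := h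
    obtain ⟨p, hp, -, hp2, -⟩ := exists_char (F := F) (hq ▸ ho.pow)
    exact ⟨p, hp2, Or.inr (Or.inr (Or.inl ⟨F, i1, i2, hp, 3, q, hq, le_rfl, fun h => by
      rw [h.2] at ho
      exact absurd ho (by decide), e⟩))⟩
  · obtain ⟨F, i1, i2, ho, e⟩ := h
    obtain ⟨p, hp, -, hp2, -⟩ := exists_char ho
    exact ⟨p, hp2, Or.inr (Or.inl ⟨F, i1, i2, hp, 2, le_rfl, fun _ => three_le_card ho, e⟩)⟩
  · obtain ⟨F, i1, i2, ho, -, e⟩ := h
    obtain ⟨p, hp, -, hp2, -⟩ := exists_char ho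
    exact ⟨p, hp2, Or.inl ⟨F, i1, i2, hp, 4, by omega, fun h => absurd h (by norm_num), e⟩⟩
  · obtain ⟨F, i1, i2, q, hq, ho, -, e⟩ := h
    obtain ⟨p, hp, -, hp2, -⟩ := exists_char (F := F) (hq ▸ ho.pow)
    exact ⟨p, hp2, Or.inr (Or.inr (Or.inl ⟨F, i1, i2, hp, 4, q, hq, by omega, fun h => by omega, e⟩))⟩
  · obtain ⟨F, i1, i2, ho, e⟩ := h
    obtain ⟨p, hp, -, hp2, -⟩ := exists_char (F := F) (Nat.odd_iff.2 (by omega))
    exact ⟨p, hp2, Or.inl ⟨F, i1, i2, hp, 5, by omega, fun h => absurd h (by norm_num), e⟩⟩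
  · obtain ⟨F, i1, i2, q, hq, ho, e⟩ := h
    obtain ⟨p, hp, -, hp2, -⟩ := exists_char (F := F) (hq ▸ (Nat.odd_iff.2 (by omega : q % 2 = 1)).pow)
    exact ⟨p, hp2, Or.inr (Or.inr (Or.inl ⟨F, i1, i2, hp, 5, q, hq, by omega, fun h => by omega, e⟩))⟩
  · obtain ⟨F, i1, i2, ho, e⟩ := h
    obtain ⟨p, hp, -, hp2, -⟩ := exists_char ho
    exact ⟨p, hp2, Or.inr (Or.inr (Or.inr (Or.inr (Or.inr (Or.inr (Or.inl
      ⟨F, i1, i2, hp, Or.inl ⟨three_le_card ho, e⟩⟩))))))⟩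
  · obtain ⟨K, i1, i2, q, ho, hq, e⟩ := h
    obtain ⟨p, hp, -, hp2, hpp⟩ := exists_char (F := K) (hq ▸ ho.pow)
    refine ⟨p, hp2, Or.inr (Or.inr (Or.inr (Or.inr (Or.inr (Or.inr (Or.inr (Or.inl
      ⟨K, i1, i2, hp, q, ?_, Or.inr ⟨hq, e⟩⟩)))))))⟩
    rw [hq] at hpp
    exact (isPrimePow_pow_iff (by norm_num)).1 hpp

/-- The rows of odd characteristic, except the Ree groups. -/
theorem nc_of_odd_rows {X : Type u} [Group X] [Finite X] [IsSimpleGroup X]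
    (h : IsL2odd X ∨ IsL3odd X ∨ IsU3odd X ∨ IsSp4odd X ∨ IsL4odd X ∨ IsU4odd X ∨ IsL5odd X ∨ IsU5odd X ∨
      IsG2odd X ∨ IsD4odd X) (hR : ¬ Lie.IsoRee X) : NC X := by
  obtain ⟨p, hp2, hG⟩ := lie_of_odd_rows h
  exact nc_of_lie hp2 hG hR

end Cfsg.Agent.H325.Con
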