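import Mathlib
import Cfsg.Agent.H325.ConCard
import Cfsg.Agent.ChevalleyStructure.ReeCount
import Cfsg.Agent.OddHalf.D6.QThree.PumpOrd.Small5
import Cfsg.Agent.BpSpor.HeThree
import Cfsg.Agent.LThreeFour.Exists
import Cfsg.Agent.H325.ConRank1
import Cfsg.Agent.GH.Defs

/-!
# The small rows of the list `K4`: no nonsolvable 2-constrained involution centralizer
-/

set_option autoImplicit false

open Cfsg Subgroup

universe u

namespace Cfsg.Agent.H325.Con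

open Cfsg.Agent.GH.Defs

theorem pow_mod (m : ℕ) : 3 ^ (2 * m + 1) % 32 = 3 ∨ 3 ^ (2 * m + 1) % 32 = 27 ∨ 3 ^ (2 * m + 1) % 32 = 19 ∨
    3 ^ (2 * m + 1) % 32 = 11 := by
  induction m with
  | zero => left; norm_num
  | succ m ih =>
    have h : 3 ^ (2 * (m + 1) + 1) = 3 ^ (2 * m + 1) * 9 := by
      rw [show 2 * (m + 1) + 1 = 2 * m + 1 + 2 by ring, pow_add]; norm_num
    rw [h]
    omega

theorem ree_card (m : ℕ) : ¬ 32 ∣ (3 ^ (2 * m + 1)) ^ 3 * (3 ^ (2 * m + 1) - 1) * ((3 ^ (2 * m + 1)) ^ 3 + 1) := by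
  have h := pow_mod m
  set q := 3 ^ (2 * m + 1) with hq
  have hq1 : 1 ≤ q := Nat.one_le_pow _ _ (by norm_num)
  obtain ⟨r, hr⟩ : ∃ r, q = r + 1 := ⟨q - 1, by omega⟩
  rw [hr] at h ⊢
  rw [Nat.add_sub_cancel]
  intro hd
  have h2 := Nat.mod_eq_zero_of_dvd hd
  have h3 : r % 32 = 2 ∨ r % 32 = 26 ∨ r % 32 = 18 ∨ r % 32 = 10 := by omega
  rcases h3 with h3 | h3 | h3 | h3 <;>
    · simp [pow_succ, Nat.mul_mod, Nat.add_mod, h3] at h2

theorem nc_ree {X : Type*} [Group X] [Finite X] (h : Lie.IsoRee X) : NC X := by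
  obtain ⟨K, _, _, m, hm, hK, ⟨e⟩⟩ := h
  apply nc_of_card
  rw [Nat.card_congr e.toEquiv, Cfsg.Agent.ChevalleyStructure.ReeCount.card_twistedG2 hK]
  exact ree_card m

theorem nc_m11 {X : Type*} [Group X] [Finite X] (h : Spor.IsoM11 X) : NC X :=
  nc_of_card (by rw [Cfsg.Agent.OddHalf.D6.QThree.PumpOrd.m11 h]; norm_num)

theorem nc_j1 {X : Type*} [Group X] [Finite X] (h : Spor.IsoJ1 X) : NC X :=
  nc_of_card (by rw [Cfsg.Agent.OddHalf.D6.QThree.PumpOrd.j1 h]; norm_num)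

theorem nc_u34 {X : Type*} [Group X] [Finite X] (h : IsU34 X) : NC X := by
  obtain ⟨F, _, _, hF, e⟩ := h
  exact (ls_u3 F 2 (by norm_num) (by rw [hF]; norm_num) e).nc

theorem nc_l28 {X : Type*} [Group X] [Finite X] (h : IsL28 X) : NC X := by
  obtain ⟨F, _, _, hF, ⟨e⟩⟩ := h
  have : Fact (Nat.Prime 2) := ⟨Nat.prime_two⟩
  have hch : CharP F 2 := charP_of_card_eq_prime_pow (p := 2) (f := 3) (by rw [hF]; norm_num)
  exact (ls_l2 e).nc

theorem nc_l216 {X : Type*} [Group X] [Finite X] (h : IsL216 X) : NC X := by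
  obtain ⟨F, _, _, hF, ⟨e⟩⟩ := h
  have : Fact (Nat.Prime 2) := ⟨Nat.prime_two⟩
  have hch : CharP F 2 := charP_of_card_eq_prime_pow (p := 2) (f := 4) (by rw [hF]; norm_num)
  exact (ls_l2 e).nc

theorem nc_sz8 {X : Type*} [Group X] [Finite X] (h : IsSz8 X) : NC X := by
  obtain ⟨F, _, _, hF, e⟩ := h
  exact (ls_sz ⟨F, _, _, 1, le_rfl, by rw [hF]; norm_num, e⟩).nc

theorem nc_l34 {X : Type*} [Group X] [Finite X] (h : IsL34 X) : NC X := by
  obtain ⟨F, _, _, hF, ⟨e⟩⟩ := h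
  obtain ⟨A⟩ := Cfsg.Agent.LThreeFour.exists_dat hF e
  exact fun t ht _ => solvable_of_pGroup (Cfsg.Agent.BpSpor.LFour.two_group A ht)

end Cfsg.Agent.H325.Con
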